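import Cfsg.Agent.DCE.HN.Main

set_option autoImplicit false
set_option maxRecDepth 100000

namespace Cfsg.Agent.DCE.HN
open Cfsg.Agent.Comp Cfsg.Agent.DCE

theorem rho_ev {w : List ℕ} (hw : ltB 8 w = true) :
    (rho (ev s w) : Matrix (Fin 132) (Fin 132) K4) = ev (mm M) w :=
  (map_ev _ ((Units.coeHom _).comp rho) w).trans
    (ev_congr fun x hx => rho_s x (ltB_spec hw x hx))

theorem satM {D : List (List ℕ)} (hD : D.all (ltB 8) = true) (hS : Sat (mm M) D) : Sat s D :=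
  fun w hw => rho_inj (Units.ext (by
    rw [rho_ev (List.all_eq_true.mp hD w hw), hS w hw, map_one, Units.val_one]))

theorem mm_append (T : List (List ℕ)) {w : List ℕ} (hw : ltB 8 w = true) :
    ev (mm (M ++ T)) w = ev (mm M) w := ev_congr fun x hx => by
  rw [mm, mm, mat, mat, List.getD_append _ _ _ _ (ltB_spec hw x hx)]

theorem sat_back {T tw D : List (List ℕ)} (hw : (tw.all (ltB 8) && D.all (ltB tw.length)) = true)
    (hE : ∀ e ∈ (List.range tw.length).map fun i => ([8 + i], tw.getD i []),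
      ev (mm (M ++ T)) e.1 = ev (mm (M ++ T)) e.2)
    (hS : Sat (mm (M ++ T)) (D.map (List.map (8 + ·)))) :
    Sat (fun x => ev s (tw.getD x [])) D := fun w hw' => by
  simp only [Bool.and_eq_true, List.all_eq_true] at hw
  refine rho_inj (Units.ext ?_)
  rw [map_one, Units.val_one, ← hS _ (List.mem_map_of_mem hw'), ev_map]
  refine (map_ev _ ((Units.coeHom _).comp rho) w).trans (ev_congr fun x hx => ?_)
  have hx' := ltB_spec (hw.2 w hw') x hx
  have h1 : ltB 8 (tw.getD x []) = true := hw.1 _ (by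
    rw [List.getD_eq_getElem _ _ hx']; exact List.getElem_mem _)
  have h2 := hE _ (List.mem_map_of_mem (List.mem_range.mpr hx'))
  rw [ev_single, mm_append T h1] at h2
  exact (rho_ev h1).trans h2.symm

theorem exists_perm {Γ : Type*} [Group Γ] [IsSimpleGroup Γ] (A : Subgroup Γ) {n : ℕ} [NeZero n]
    (hA : A.index = n) (hn : n ≠ 1) : ∃ P : Subgroup (Equiv.Perm (Fin n)), Nonempty (Γ ≃* P) ∧
      MulAction.IsPretransitive P (Fin n) ∧
        Nonempty (MulAction.stabilizer P (0 : Fin n) ≃* A) := by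
  have : Finite (Γ ⧸ A) := Nat.finite_of_card_ne_zero (hA ▸ NeZero.ne n :)
  let e0 : (Γ ⧸ A) ≃ Fin n := Finite.equivFinOfCardEq hA
  let e : (Γ ⧸ A) ≃ Fin n := e0.trans (Equiv.swap (e0 ((1 : Γ) : Γ ⧸ A)) 0)
  have he : e ((1 : Γ) : Γ ⧸ A) = 0 := by simp [e]
  let ψ : Γ →* Equiv.Perm (Fin n) := e.permCongrHom.toMonoidHom.comp (MulAction.toPermHom Γ (Γ ⧸ A))
  have hψ : ∀ g y, ψ g (e y) = e (g • y) := fun g y => by simp [ψ, Equiv.permCongrHom]
  have hs : ∀ g, ψ g 0 = 0 ↔ g ∈ A := fun g => by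
    rw [← he, hψ, e.apply_eq_iff_eq, MulAction.Quotient.smul_mk, QuotientGroup.eq]
    simp
  have hi : Function.Injective ψ := by
    rw [← MonoidHom.ker_eq_bot_iff]
    refine (ψ.normal_ker.eq_bot_or_eq_top).resolve_right fun k => hn ?_
    rw [← hA, Subgroup.index_eq_one, eq_top_iff]
    exact fun g _ => (hs g).mp (by rw [show ψ g = 1 from (k ▸ Subgroup.mem_top g : g ∈ ψ.ker)]; rfl)
  refine ⟨ψ.range, ⟨MonoidHom.ofInjective hi⟩, ⟨fun a b => ?_⟩,
    ⟨(((MonoidHom.ofInjective hi).subgroupMap A).trans (MulEquiv.subgroupCongr ?_)).symm⟩⟩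
  · obtain ⟨a, rfl⟩ := e.surjective a
    obtain ⟨b, rfl⟩ := e.surjective b
    obtain ⟨g, rfl⟩ := MulAction.exists_smul_eq Γ a b
    exact ⟨⟨ψ g, g, rfl⟩, hψ g a⟩
  · ext ⟨_, g, rfl⟩
    rw [MulAction.mem_stabilizer_iff]
    exact (Subgroup.mem_map_iff_mem (f := ((MonoidHom.ofInjective hi : Γ ≃* ψ.range) : Γ →* ψ.range))
      (MonoidHom.ofInjective hi).injective (x := g)).trans (hs g).symm

end Cfsg.Agent.DCE.HN
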